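import Cfsg.Agent.H977.E83.Wact
import Cfsg.Agent.H738.E83.Cube

/-!
# S5925, box K, candidates: the second elimination (helper187)

`q`, `r₀`, `h₂` are the explicit vectors of helper977 (`Wact.lean`), `r = r₀ + z h₂` is a candidate for `f x q`.

* `q_rest` : `[q, r - u₀] = 0` for every `z`, where `x t y u₀ = x⁹ q`;
* `prem` : the triangle identity `[x q, x t y r - x⁹ q] = 0`;
* `ne_pos`, `ne_neg` : `[r, y x x r - t r] ≠ 0` for `z = 1` and for `z = -1` (kernel);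
* `n2` : the conclusion `r = r₀`.
-/

set_option autoImplicit false
set_option maxRecDepth 100000
set_option exponentiation.threshold 600

namespace Cfsg.Agent.H187.E83

open Matrix Cfsg Cfsg.Lie
open Cfsg.Agent.ChevalleyStructure Cfsg.Agent.ChevalleyStructure.JacTab Cfsg.Agent.ChevalleyStructure.JacDataE8
open Cfsg.Agent.H788.E83 (Ax Ay At)
open Cfsg.Agent.H64.E83 (mx L3 Ph)
open Cfsg.Agent.H738.E83 (br mx_br br_add_right br_smul_right vb Sem okw aw sem_vs nl vb_nl vb_append zmod3 br_zero_right)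
open Cfsg.Agent.H977.E83 (ql u0 r0 bh2 tr0 th2 yxxr0 yxxh2 y_q t_q t_r0 t_h2 yxx_r0 yxx_h2 xty_u0')

/-! ### the bracket with `q` -/

theorem q_r0 : br (vb ql) (vb r0 + -vb u0) = 0 :=
  (((sem_vs (w := r0) (by decide +kernel)).ad3 (sem_vs (w := u0) (by decide +kernel)).ng).aw (w := ql)
    (by decide +kernel)).eq_zero (by decide +kernel)

theorem q_h2 : br (vb ql) (vb bh2) = 0 :=
  ((sem_vs (w := bh2) (by decide +kernel)).aw (w := ql) (by decide +kernel)).eq_zero (by decide +kernel)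

/-- `[q, r - u₀] = 0` -/
theorem q_rest (z : ZMod 3) : br (vb ql) ((vb r0 + z • vb bh2) + -vb u0) = 0 := by
  have e : (vb r0 + z • vb bh2) + -vb u0 = (vb r0 + -vb u0) + z • vb bh2 := by abel
  rw [e, br_add_right, q_r0, br_smul_right, q_h2, smul_zero, add_zero]

/-- the triangle identity -/
theorem prem {r : L3} (h : br (vb ql) (r + -vb u0) = 0) :
    br (mx (Ph Ax) *ᵥ vb ql) (mx (Ph Ax) *ᵥ (mx (Ph At) *ᵥ (mx (Ph Ay) *ᵥ r)) - mx (Ph Ax ^ 9) *ᵥ vb ql) = 0 := by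
  have e : mx (Ph Ax) *ᵥ (mx (Ph At) *ᵥ (mx (Ph Ay) *ᵥ r)) - mx (Ph Ax ^ 9) *ᵥ vb ql =
      mx (Ph Ax) *ᵥ (mx (Ph At) *ᵥ (mx (Ph Ay) *ᵥ (r + -vb u0))) := by
    rw [← xty_u0', Matrix.mulVec_add, Matrix.mulVec_add, Matrix.mulVec_add, Matrix.mulVec_neg, Matrix.mulVec_neg,
      Matrix.mulVec_neg, sub_eq_add_neg]
  have e' : mx (Ph Ax) *ᵥ vb ql = mx (Ph Ax) *ᵥ (mx (Ph At) *ᵥ (mx (Ph Ay) *ᵥ vb ql)) := by rw [y_q, t_q]
  rw [e, e', ← mx_br, ← mx_br, ← mx_br, h, Matrix.mulVec_zero, Matrix.mulVec_zero, Matrix.mulVec_zero]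

/-! ### the bracket with `r` -/

theorem ne_pos : br (vb (r0 ++ bh2)) (vb (yxxr0 ++ yxxh2) + -vb (tr0 ++ th2)) ≠ 0 :=
  (((sem_vs (w := yxxr0 ++ yxxh2) (by decide +kernel)).ad3 (sem_vs (w := tr0 ++ th2) (by decide +kernel)).ng).aw
    (w := r0 ++ bh2) (by decide +kernel)).ne_zero (by decide +kernel)

theorem ne_neg : br (vb (r0 ++ nl bh2)) (vb (yxxr0 ++ nl yxxh2) + -vb (tr0 ++ nl th2)) ≠ 0 :=
  (((sem_vs (w := yxxr0 ++ nl yxxh2) (by decide +kernel)).ad3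
    (sem_vs (w := tr0 ++ nl th2) (by decide +kernel)).ng).aw (w := r0 ++ nl bh2) (by decide +kernel)).ne_zero
      (by decide +kernel)

/-- the image of a candidate -/
theorem img (z : ZMod 3) : mx (Ph Ay) *ᵥ (mx (Ph Ax) *ᵥ (mx (Ph Ax) *ᵥ (vb r0 + z • vb bh2))) -
    mx (Ph At) *ᵥ (vb r0 + z • vb bh2) = (vb yxxr0 + z • vb yxxh2) + -(vb tr0 + z • vb th2) := by
  simp only [Matrix.mulVec_add, Matrix.mulVec_smul]
  rw [yxx_r0, yxx_h2, t_r0, t_h2, sub_eq_add_neg]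

/-- **the second elimination** -/
theorem n2 {z : ZMod 3} {r : L3} (hr : r = vb r0 + z • vb bh2)
    (e2 : br (mx (Ph Ax) *ᵥ vb ql) (mx (Ph Ax) *ᵥ (mx (Ph At) *ᵥ (mx (Ph Ay) *ᵥ r)) - mx (Ph Ax ^ 9) *ᵥ vb ql) = 0 →
      br r (mx (Ph Ay) *ᵥ (mx (Ph Ax) *ᵥ (mx (Ph Ax) *ᵥ r)) - mx (Ph At) *ᵥ r) = 0) : r = vb r0 := by
  subst hr
  have h := e2 (prem (q_rest z))
  rw [img] at h
  rcases zmod3 z with rfl | rfl | rfl
  · rw [zero_smul, add_zero]
  · rw [one_smul, one_smul, one_smul, ← vb_append, ← vb_append, ← vb_append] at h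
    exact absurd h ne_pos
  · rw [neg_smul, neg_smul, neg_smul, one_smul, one_smul, one_smul, ← vb_nl, ← vb_nl, ← vb_nl, ← vb_append, ← vb_append,
      ← vb_append] at h
    exact absurd h ne_neg

end Cfsg.Agent.H187.E83
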